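import Cfsg.Agent.Lib.ToddCox.Glue
set_option autoImplicit false
set_option maxRecDepth 100000
namespace Cfsg.Agent.Lib.ToddCox.M11C2
def E_0 : ℕ := 0x1040000040000041000001000002040000080000081000002000002080000080000082000002000000040000000000001000000000000000000000000000000000000001000000080000080000001000000080000040000042000000
end Cfsg.Agent.Lib.ToddCox.M11C2
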