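import Cfsg.Agent.Lib.ToddCox.M11C2.Data
set_option autoImplicit false
set_option maxRecDepth 100000
namespace Cfsg.Agent.Lib.ToddCox.M11C2
theorem wordsGood : allBelow (wordsOK W (relR Rb inv) inv sp) nW 2 = true := by decide +kernel
theorem d0 : allBits (fun k => bif Nat.blt k 2 then chkDef Eo inv k else true) 13 0 = true := by decide +kernel
theorem s0 : chkStream Eo inv W isH 5 2 0x400000300000100000020000030000058000008000004000002000000000001400000e0000050000038000004000006000001000001000000000000a0000010000018000003ffffffffffff = true := by decide +kernel
theorem c0 : Covered Eo inv W isH 2 7 := covered_of_stream 5 2 _ s0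
theorem l0 : chkPoints Eo cF (2 * nEv) N ys 3 0 0x120000020000058000008000006000001000000800000000001a00000100000100000080000000000010000030000000000008000000 = true := by decide +kernel
theorem k0 : LinksOK Eo cF (2 * nEv) N ys 0 3 := linksOK_of_points 3 0 _ l0
end Cfsg.Agent.Lib.ToddCox.M11C2
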